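import Cfsg.Agent.Lib.MinIndex.LinearPerm
import Cfsg.Agent.Lib.ClassicalLinear.Simple
import Cfsg.Agent.Lib.ClassicalLinear.Card

/-!
The exceptional small linear groups have no transitive permutation representation of degree
smaller than the number of lines.
-/

set_option autoImplicit false
set_option linter.unusedSectionVars false
set_option linter.unusedSimpArgs false
set_option linter.style.haveILetI false

namespace CfsgLib.MinIndex

open Matrix
open CfsgLib.InvCentralizers.SLParabolic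
open CfsgLib.InvCentralizers.LinearDegree (gs gs_succ sub_one_mul_gs bound_sum Exc)

variable {F : Type*} [Field F] {k : ℕ}

/-- The block upper triangular element with row `r` and block `A`. -/
def blk (r : Fin k → F) (A : SpecialLinearGroup (Fin k) F) :
    SpecialLinearGroup (Fin 1 ⊕ Fin k) F :=
  levS A * qRow r

theorem blk_coe (r : Fin k → F) (A : SpecialLinearGroup (Fin k) F) :
    (blk r A : Matrix (Fin 1 ⊕ Fin k) (Fin 1 ⊕ Fin k) F) =
      fromBlocks 1 (of fun _ j => r j) 0 (A : Matrix (Fin k) (Fin k) F) := by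
  have hA : (A : Matrix (Fin k) (Fin k) F).det = 1 := A.2
  change fromBlocks (((A : Matrix (Fin k) (Fin k) F).det)⁻¹ • 1) 0 0 (A : Matrix (Fin k) (Fin k) F) *
    fromBlocks 1 (of fun _ j => r j) 0 1 = _
  rw [fromBlocks_multiply]
  simp [hA]

theorem qRow_mul_levS (b : Fin k → F) (A : SpecialLinearGroup (Fin k) F) :
    qRow b * levS A = blk (b ᵥ* (A : Matrix (Fin k) (Fin k) F)) A := by
  have h := qRow_mul_lev (SpecialLinearGroup.toGL A) b
  rw [show (SpecialLinearGroup.toGL A).val.det = 1 from A.2, one_smul] at h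
  exact h

theorem blk_mul (r r' : Fin k → F) (A B : SpecialLinearGroup (Fin k) F) :
    blk r A * blk r' B = blk (r ᵥ* (B : Matrix (Fin k) (Fin k) F) + r') (A * B) := by
  unfold blk
  rw [mul_assoc (levS A), ← mul_assoc (qRow r), qRow_mul_levS, blk, map_mul, qRow_add]
  simp only [mul_assoc]

theorem blk_one (r : Fin k → F) : blk r (1 : SpecialLinearGroup (Fin k) F) = qRow r := by
  rw [blk, map_one, one_mul]

variable [Fintype F] [DecidableEq F] {m : ℕ}
  {α : SpecialLinearGroup (Fin 1 ⊕ Fin k) F →* Equiv.Perm (Fin m)}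

theorem exists_blk_fix (hq : ∀ x y, ∃ b, α (qRow b) x = y) (A : SpecialLinearGroup (Fin k) F)
    (x : Fin m) : ∃ r, α (blk r A) x = x := by
  obtain ⟨c, hc⟩ := hq (α (levS A) x) x
  exact ⟨_, by rw [← qRow_mul_levS, map_mul, Equiv.Perm.mul_apply]; exact hc⟩

theorem false_of_three_four
    {α : SpecialLinearGroup (Fin 1 ⊕ Fin 2) F →* Equiv.Perm (Fin m)}
    (hF : Fintype.card F = 4) (ht : ∀ x y, ∃ g, α g x = y) (hm : m = 16) : False := by
  have hm' : m = Fintype.card F ^ 2 := by rw [hF, hm]; norm_num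
  obtain ⟨hq, hfree⟩ := qRow_free (le_refl 2) ht hm'
  have h2 : (2 : F) = 0 := by
    have h4 := FiniteField.cast_card_eq_zero F
    rw [hF] at h4
    have h22 : (2 : F) * 2 = 0 := by rw [← h4]; norm_num
    exact (mul_eq_zero.1 h22).elim id id
  set T : SpecialLinearGroup (Fin 2) F := ⟨!![1, 1; 0, 1], by simp [det_fin_two]⟩ with hT
  have hTc : (T : Matrix (Fin 2) (Fin 2) F) = !![1, 1; 0, 1] := rfl
  have hTT : T * T = 1 := by
    apply Subtype.ext
    change (T : Matrix (Fin 2) (Fin 2) F) * (T : Matrix (Fin 2) (Fin 2) F) = 1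
    rw [hTc]
    ext i j
    fin_cases i <;> fin_cases j <;> simp [Matrix.mul_apply, Fin.sum_univ_two] <;>
      linear_combination h2
  let x : Fin m := ⟨0, by omega⟩
  obtain ⟨r, hr⟩ := exists_blk_fix hq T x
  have hr0 : r 0 = 0 := by
    have h1 : α (blk r T * blk r T) x = x := by rw [map_mul, Equiv.Perm.mul_apply, hr, hr]
    rw [blk_mul, hTT, blk_one] at h1
    have h3 := congrFun (hfree x _ h1) 1
    rw [hTc] at h3
    simp [vecMul, dotProduct, Fin.sum_univ_two, vecHead, vecTail] at h3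
    linear_combination h3 - (r 1) * h2
  refine tv_free (le_refl 2) ht hm' (Sum.elim (fun _ => r 1) ![1, 0]) (Sum.elim 0 ![0, 1])
    (by simp [dotProduct, Fintype.sum_sum_type, Fin.sum_univ_two]) ?_ ?_ x ?_
  · exact fun h => one_ne_zero (α := F) (by simpa using congrFun h (Sum.inr 0))
  · exact fun h => one_ne_zero (α := F) (by simpa using congrFun h (Sum.inr 1))
  · convert hr using 3
    apply Subtype.ext
    rw [blk_coe, hTc]
    change 1 + vecMulVec _ _ = _
    ext (i | i) (j | j) <;> fin_cases i <;> fin_cases j <;>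
      simp [vecMulVec_apply, hr0]

set_option maxHeartbeats 2000000 in
theorem false_of_four_three
    {α : SpecialLinearGroup (Fin 1 ⊕ Fin 3) F →* Equiv.Perm (Fin m)}
    (hF : Fintype.card F = 3) (ht : ∀ x y, ∃ g, α g x = y) (hm : m = 27) : False := by
  have hm' : m = Fintype.card F ^ 3 := by rw [hF, hm]; norm_num
  obtain ⟨hq, hfree⟩ := qRow_free (by norm_num) ht hm'
  have h3 : (3 : F) = 0 := by
    have h := FiniteField.cast_card_eq_zero F
    rw [hF] at h
    exact_mod_cast h
  set T : SpecialLinearGroup (Fin 3) F :=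
    ⟨!![1, 1, 0; 0, 1, 0; 0, 0, 1], by simp [det_fin_three]⟩ with hT
  set D : SpecialLinearGroup (Fin 3) F :=
    ⟨!![-1, 0, 0; 0, -1, 0; 0, 0, 1], by simp [det_fin_three]⟩ with hD
  set A : SpecialLinearGroup (Fin 3) F :=
    ⟨!![1, 1, 0; 0, 1, 1; 0, 0, 1], by simp [det_fin_three]⟩ with hA
  have hTc : (T : Matrix (Fin 3) (Fin 3) F) = !![1, 1, 0; 0, 1, 0; 0, 0, 1] := rfl
  have hDc : (D : Matrix (Fin 3) (Fin 3) F) = !![-1, 0, 0; 0, -1, 0; 0, 0, 1] := rfl
  have hAc : (A : Matrix (Fin 3) (Fin 3) F) = !![1, 1, 0; 0, 1, 1; 0, 0, 1] := rfl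
  -- the first kind of unipotent moves every point
  have hfix : ∀ (b : Fin 3 → F) (x : Fin m), b 0 ≠ 0 → α (blk b T) x ≠ x := by
    intro b x hb hx
    obtain ⟨r, hr⟩ := exists_blk_fix hq D x
    have hTD : T * D = D * T := by
      apply Subtype.ext
      change (T : Matrix (Fin 3) (Fin 3) F) * (D : Matrix (Fin 3) (Fin 3) F) =
        (D : Matrix (Fin 3) (Fin 3) F) * (T : Matrix (Fin 3) (Fin 3) F)
      rw [hTc, hDc]
      ext i j
      fin_cases i <;> fin_cases j <;> simp [Matrix.mul_apply, Fin.sum_univ_three]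
    have h1 : α (blk b T * blk r D) x = x := by rw [map_mul, Equiv.Perm.mul_apply, hr, hx]
    have h2 : α (blk r D * blk b T) x = x := by rw [map_mul, Equiv.Perm.mul_apply, hx, hr]
    rw [blk_mul] at h1 h2
    rw [hTD] at h1
    set w := r ᵥ* (T : Matrix (Fin 3) (Fin 3) F) + b with hw
    set w' := b ᵥ* (D : Matrix (Fin 3) (Fin 3) F) + r with hw'
    have e : blk w (D * T) = blk w' (D * T) * qRow (w - w') := by
      rw [blk, blk, mul_assoc, ← qRow_add, add_sub_cancel]
    rw [e, map_mul, Equiv.Perm.mul_apply] at h2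
    have h4 := congrFun (hfree x _ ((α (blk w' (D * T))).injective (h2.trans h1.symm))) 0
    rw [hw, hw', hTc, hDc] at h4
    simp [vecMul, dotProduct, Fin.sum_univ_three, vecHead, vecTail] at h4
    exact hb (by linear_combination (-1 : F) * h4 + (b 0) * h3)
  let x : Fin m := ⟨0, by omega⟩
  obtain ⟨r, hr⟩ := exists_blk_fix hq A x
  have hA3 : A * A * A = 1 := by
    apply Subtype.ext
    change (A : Matrix (Fin 3) (Fin 3) F) * (A : Matrix (Fin 3) (Fin 3) F) *
      (A : Matrix (Fin 3) (Fin 3) F) = 1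
    rw [hAc]
    ext i j
    fin_cases i <;> fin_cases j <;> simp [Matrix.mul_apply, Fin.sum_univ_three] <;>
      linear_combination h3
  have hr0 : r 0 = 0 := by
    have h1 : α (blk r A * blk r A * blk r A) x = x := by
      rw [map_mul, map_mul, Equiv.Perm.mul_apply, Equiv.Perm.mul_apply, hr, hr, hr]
    rw [blk_mul, blk_mul, hA3, blk_one] at h1
    have h4 := congrFun (hfree x _ h1) 2
    rw [hAc] at h4
    simp [vecMul, dotProduct, Fin.sum_univ_three, vecHead, vecTail] at h4
    linear_combination h4 - (r 1 + r 2) * h3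
  set e : Fin 1 ⊕ Fin 3 ≃ Fin 4 := finSumFinEquiv.trans (finCongr (by norm_num))
  set w0 : SpecialLinearGroup (Fin 4) F :=
    ⟨!![r 1, r 2, 0, -1; 1, 0, 0, 0; 0, 1, 0, 0; 0, 0, 1, 0],
      by simp [det_succ_row_zero, Fin.sum_univ_succ, Fin.succAbove]; norm_num⟩ with hw0
  set g : SpecialLinearGroup (Fin 1 ⊕ Fin 3) F :=
    CfsgLib.InvCentralizers.LinearDegree.slReindex e.symm w0 with hg
  have hconj : blk r A * g = g * blk ![1, 0, 0] T := by
    apply Subtype.ext
    change (blk r A : Matrix (Fin 1 ⊕ Fin 3) (Fin 1 ⊕ Fin 3) F) *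
      (g : Matrix (Fin 1 ⊕ Fin 3) (Fin 1 ⊕ Fin 3) F) = (g : Matrix (Fin 1 ⊕ Fin 3) (Fin 1 ⊕ Fin 3) F) *
      (blk ![1, 0, 0] T : Matrix (Fin 1 ⊕ Fin 3) (Fin 1 ⊕ Fin 3) F)
    rw [blk_coe, blk_coe, hAc, hTc, hg]
    change _ * (!![r 1, r 2, 0, -1; 1, 0, 0, 0; 0, 1, 0, 0; 0, 0, 1, 0] :
      Matrix (Fin 4) (Fin 4) F).submatrix e e = (!![r 1, r 2, 0, -1; 1, 0, 0, 0; 0, 1, 0, 0; 0, 0, 1, 0] :
      Matrix (Fin 4) (Fin 4) F).submatrix e e * _
    ext (i | i) (j | j) <;> fin_cases i <;> fin_cases j <;>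
      simp [Matrix.mul_apply, Fintype.sum_sum_type, Fin.sum_univ_three, e, hr0,
        finSumFinEquiv, Fin.natAdd, Fin.castAdd] <;> ring
  refine hfix ![1, 0, 0] (α g⁻¹ x) (by simp) ?_
  have h1 : blk ![1, 0, 0] T = g⁻¹ * blk r A * g := by rw [mul_assoc, hconj, inv_mul_cancel_left]
  rw [h1, map_mul, map_mul, Equiv.Perm.mul_apply, Equiv.Perm.mul_apply, ← Equiv.Perm.mul_apply
    (α g), ← map_mul, mul_inv_cancel, map_one, Equiv.Perm.one_apply, hr]

theorem card_SL_sum (k : ℕ) :
    (Fintype.card F - 1) * Nat.card (SpecialLinearGroup (Fin 1 ⊕ Fin k) F) =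
      ∏ i : Fin (1 + k), (Fintype.card F ^ (1 + k) - Fintype.card F ^ (i : ℕ)) := by
  rw [CfsgLib.ClassicalLinear.card_SL]
  refine Fintype.prod_equiv (finCongr (by simp)) _ _ fun i => ?_
  simp

theorem false_of_three_two
    {α : SpecialLinearGroup (Fin 1 ⊕ Fin 2) F →* Equiv.Perm (Fin m)}
    (hF : Fintype.card F = 2) (ht : ∀ x y, ∃ g, α g x = y) (hm : 2 ≤ m) (hm7 : m < 7) : False := by
  set G := SpecialLinearGroup (Fin 1 ⊕ Fin 2) F with hG
  have hcard : Nat.card G = 168 := by
    have h := card_SL_sum (F := F) 2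
    rw [hF] at h
    simp [Fin.prod_univ_three, -Nat.card_eq_fintype_card] at h
    exact h
  have hc : Subgroup.center G = ⊥ := Subgroup.eq_bot_of_card_eq _ (by
    rw [CfsgLib.ClassicalLinear.card_center_SL, hF]; simp)
  haveI : Nontrivial G := Finite.one_lt_card_iff_nontrivial.1 (by omega)
  haveI : IsSimpleGroup G := by
    haveI := CfsgLib.ClassicalLinear.isSimpleGroup_psl_of_three_le (ι := Fin 1 ⊕ Fin 2) (F := F)
      (by simp)
    let π : G →* ProjectiveSpecialLinearGroup (Fin 1 ⊕ Fin 2) F :=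
      QuotientGroup.mk' (Subgroup.center G)
    have hinj : Function.Injective π := by
      rw [← MonoidHom.ker_eq_bot_iff, QuotientGroup.ker_mk', hc]
    exact IsSimpleGroup.isSimpleGroup_of_surjective
      (MulEquiv.ofBijective π ⟨hinj, QuotientGroup.mk'_surjective _⟩).symm.toMonoidHom
      (MulEquiv.surjective _)
  rcases Subgroup.Normal.eq_bot_or_eq_top (inferInstance : α.ker.Normal) with h | h
  · have hd := Subgroup.card_dvd_of_injective α ((MonoidHom.ker_eq_bot_iff _).1 h)
    rw [hcard, Nat.card_eq_fintype_card, Fintype.card_perm, Fintype.card_fin] at hd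
    interval_cases m <;> norm_num [Nat.factorial] at hd
  · obtain ⟨g, hg⟩ := ht ⟨0, by omega⟩ ⟨1, by omega⟩
    rw [(MonoidHom.mem_ker).1 (h ▸ Subgroup.mem_top g : g ∈ α.ker)] at hg
    simp at hg

/-- A transitive action of the special linear group has degree at least the number of lines. -/
theorem gs_le_degree (hk : 2 ≤ k) (hexc : ¬ (k = 3 ∧ Fintype.card F = 2))
    (ht : ∀ x y, ∃ g, α g x = y) (hm : 2 ≤ m) : gs (Fintype.card F) (k + 1) ≤ m := by
  by_cases hE : Exc (k + 1) (Fintype.card F)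
  · by_contra hlt
    push Not at hlt
    have hpow := pow_le_degree hk ht hm
    have hq := Fintype.one_lt_card (α := F)
    have hcard := card_SL_sum (F := F) k
    haveI : Finite (SpecialLinearGroup (Fin 1 ⊕ Fin k) F) := inferInstance
    have hdvd : m ∣ Nat.card (SpecialLinearGroup (Fin 1 ⊕ Fin k) F) := by
      letI : MulAction (SpecialLinearGroup (Fin 1 ⊕ Fin k) F) (Fin m) :=
        MulAction.compHom (Fin m) α
      haveI : MulAction.IsPretransitive (SpecialLinearGroup (Fin 1 ⊕ Fin k) F) (Fin m) := ⟨ht⟩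
      have h := Subgroup.index_dvd_card (MulAction.stabilizer
        (SpecialLinearGroup (Fin 1 ⊕ Fin k) F) (⟨0, by omega⟩ : Fin m))
      rwa [MulAction.index_stabilizer_of_transitive, Nat.card_eq_fintype_card,
        Fintype.card_fin] at h
    rcases hE with ⟨h1, h2⟩ | ⟨h1, h2⟩ | ⟨h1, h2⟩ | ⟨h1, h2⟩
    · obtain rfl : k = 2 := by omega
      rw [h2] at hlt
      norm_num [gs, Finset.sum_range_succ] at hlt
      exact false_of_three_two h2 ht hm hlt
    · obtain rfl : k = 2 := by omega
      rw [h2] at hlt hpow hcard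
      norm_num [gs, Finset.sum_range_succ] at hlt hpow
      have hd := dvd_card_of_trans hk ht hm (by rw [h2]; omega)
      simp [Fin.prod_univ_three, -Nat.card_eq_fintype_card] at hcard
      have hc : Nat.card (SpecialLinearGroup (Fin 1 ⊕ Fin 2) F) = 60480 := by omega
      rw [hc] at hd hdvd
      refine false_of_three_four h2 ht ?_
      interval_cases m <;> first | rfl | (exfalso; revert hd hdvd; norm_num)
    · exact hexc ⟨by omega, h2⟩
    · obtain rfl : k = 3 := by omega
      rw [h2] at hlt hpow hcard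
      norm_num [gs, Finset.sum_range_succ] at hlt hpow
      have hd := dvd_card_of_trans hk ht hm (by rw [h2]; omega)
      simp [Fin.prod_univ_four, -Nat.card_eq_fintype_card] at hcard
      have hc : Nat.card (SpecialLinearGroup (Fin 1 ⊕ Fin 3) F) = 12130560 := by omega
      rw [hc] at hd hdvd
      refine false_of_four_three h2 ht ?_
      interval_cases m <;> first | rfl | (exfalso; revert hd hdvd; norm_num)
  · have h := bound_sum k hk hE _ (permZero α) (exists_permZero_ne_one ht hm)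
    rwa [finrank_permZero α (by omega)] at h

end CfsgLib.MinIndex
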