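import Mathlib
import Cfsg.Agent.Lib.InvCentralizers.LinearDegree

/-!
Transitive permutation representations of the special linear group of small degree.
-/

set_option autoImplicit false
set_option linter.unusedSectionVars false
set_option linter.style.haveILetI false

namespace CfsgLib.MinIndex

open Matrix
open CfsgLib.InvCentralizers.SLParabolic
open CfsgLib.InvCentralizers.LinearDegree (gs)

section General

variable {G : Type*} [Group G] {m : ℕ}

/-- The permutation module. -/
def permRep (α : G →* Equiv.Perm (Fin m)) : Representation ℂ G (Fin m → ℂ) where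
  toFun g := LinearMap.funLeft ℂ ℂ (α g⁻¹)
  map_one' := by
    refine LinearMap.ext fun f => funext fun x => ?_
    simp
  map_mul' a b := by
    refine LinearMap.ext fun f => funext fun x => ?_
    simp

theorem permRep_apply (α : G →* Equiv.Perm (Fin m)) (g : G) (f : Fin m → ℂ) (x : Fin m) :
    permRep α g f x = f (α g⁻¹ x) := rfl

/-- The sum of the coordinates. -/
noncomputable def total : (Fin m → ℂ) →ₗ[ℂ] ℂ where
  toFun f := ∑ x, f x
  map_add' f g := by simp [Finset.sum_add_distrib]
  map_smul' a f := by simp [Finset.mul_sum]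

/-- The functions of sum zero. -/
noncomputable def sumZero (α : G →* Equiv.Perm (Fin m)) : Subrepresentation (permRep α) :=
  ⟨LinearMap.ker total, fun g f hf => by
    simp only [LinearMap.mem_ker] at hf ⊢
    rw [← hf]
    exact Equiv.sum_comp (α g⁻¹) f⟩

/-- The deleted permutation module. -/
noncomputable abbrev permZero (α : G →* Equiv.Perm (Fin m)) :
    Representation ℂ G (sumZero α).toSubmodule :=
  (sumZero α).toRepresentation

theorem permZero_apply (α : G →* Equiv.Perm (Fin m)) (g : G) (f : (sumZero α).toSubmodule) :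
    (permZero α g f).1 = permRep α g f.1 := rfl

theorem finrank_permZero (α : G →* Equiv.Perm (Fin m)) (hm : 1 ≤ m) :
    Module.finrank ℂ (sumZero α).toSubmodule + 1 = m := by
  have h : LinearMap.range (total (m := m)) = ⊤ :=
    LinearMap.range_eq_top.2 fun c => ⟨Pi.single ⟨0, hm⟩ c, by simp [total]⟩
  have h1 := (total (m := m)).finrank_range_add_finrank_ker
  rw [h, finrank_top, Module.finrank_self, Module.finrank_fin_fun, add_comm] at h1
  exact h1

variable {α : G →* Equiv.Perm (Fin m)}

theorem eq_zero_of_fixed (ht : ∀ x y, ∃ g, α g x = y) (f : (sumZero α).toSubmodule)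
    (hf : ∀ g, permZero α g f = f) : f = 0 := by
  rcases Nat.eq_zero_or_pos m with rfl | hm
  · exact Subtype.ext (funext fun x => x.elim0)
  refine Subtype.ext (funext fun x => ?_)
  have hconst : ∀ y, f.1 y = f.1 x := fun y => by
    obtain ⟨g, rfl⟩ := ht x y
    have h := congrFun (congrArg Subtype.val (hf g)) (α g x)
    rw [permZero_apply, permRep_apply, map_inv, Equiv.Perm.inv_def, Equiv.symm_apply_apply] at h
    exact h.symm
  have h : ∑ y, f.1 y = 0 := f.2
  rw [Finset.sum_congr rfl fun y _ => hconst y, Finset.sum_const, Finset.card_univ, Fintype.card_fin,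
    nsmul_eq_mul, mul_eq_zero] at h
  exact h.resolve_left (by exact_mod_cast hm.ne')

theorem exists_permZero_ne_one (ht : ∀ x y, ∃ g, α g x = y) (hm : 2 ≤ m) :
    ∃ g, permZero α g ≠ 1 := by
  by_contra hcon
  push Not at hcon
  have h : (sumZero α).toSubmodule = ⊥ := (Submodule.eq_bot_iff _).2 fun f hf =>
    congrArg Subtype.val (eq_zero_of_fixed ht ⟨f, hf⟩ fun g => by rw [hcon g]; rfl)
  have h1 := finrank_permZero α (by omega)
  rw [h, finrank_bot] at h1
  omega

/-- A module without invariant vectors in which every invariant section is trivial or large. -/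
theorem isIrreducible_of_sections {V : Type} [AddCommGroup V] [Module ℂ V] [FiniteDimensional ℂ V]
    [Nontrivial V] [Finite G] (ρ : Representation ℂ G V) (N : ℕ)
    (hfix : ∀ v, (∀ g, ρ g v = v) → v = 0)
    (hbig : ∀ (U : Type) [AddCommGroup U] [Module ℂ U] [FiniteDimensional ℂ U]
      (σ : Representation ℂ G U), (∃ g, σ g ≠ 1) → N ≤ Module.finrank ℂ U)
    (hdim : Module.finrank ℂ V < 2 * N) : ρ.IsIrreducible := by
  classical
  haveI : Nontrivial (Subrepresentation ρ) :=
    ⟨⟨⊥, ⊤, fun e => bot_ne_top (α := Submodule ℂ V)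
      (congrArg Subrepresentation.toSubmodule e)⟩⟩
  refine ⟨fun p => or_iff_not_imp_left.2 fun hp => Subrepresentation.toSubmodule_injective ?_⟩
  by_contra hp1
  have hp0 : p.toSubmodule ≠ ⊥ := fun e => hp (Subrepresentation.toSubmodule_injective e)
  by_cases hW : ∃ g, p.toRepresentation g ≠ 1
  · have h1 := hbig _ _ hW
    let τ : Representation ℂ G (V ⧸ p.toSubmodule) :=
      { toFun := fun g => p.toSubmodule.mapQ p.toSubmodule (ρ g) (p.apply_mem_toSubmodule g)
        map_one' := by ext v; simp
        map_mul' := fun a b => by ext v; simp }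
    by_cases hQ : ∃ g, τ g ≠ 1
    · have h2 := hbig _ τ hQ
      have := Submodule.finrank_quotient_add_finrank p.toSubmodule
      omega
    push Not at hQ
    haveI := Fintype.ofFinite G
    refine hp1 (Submodule.eq_top_iff'.2 fun v => ?_)
    have h0 : ∑ g, ρ g v = 0 := hfix _ fun h => by
      rw [map_sum]
      conv_rhs => rw [← Equiv.sum_comp (Equiv.mulLeft h)]
      simp [Module.End.mul_apply]
    have h3 : ∑ g, (v - ρ g v) ∈ p.toSubmodule := Submodule.sum_mem _ fun g _ => by
      rw [← neg_sub]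
      refine Submodule.neg_mem _ ?_
      have h3 := LinearMap.congr_fun (hQ g) (Submodule.Quotient.mk v)
      exact (Submodule.Quotient.eq _).1 h3
    rw [Finset.sum_sub_distrib, h0, sub_zero, Finset.sum_const, Finset.card_univ,
      ← Nat.cast_smul_eq_nsmul ℂ] at h3
    exact (Submodule.smul_mem_iff _ (by exact_mod_cast Fintype.card_ne_zero)).1 h3
  · push Not at hW
    refine hp0 ((Submodule.eq_bot_iff _).2 fun w hw => hfix w fun g => ?_)
    exact congrArg Subtype.val (LinearMap.congr_fun (hW g) ⟨w, hw⟩)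

end General

variable {F : Type*} [Field F] [Fintype F] [DecidableEq F] {k m : ℕ}
  {α : SpecialLinearGroup (Fin 1 ⊕ Fin k) F →* Equiv.Perm (Fin m)}

theorem exists_structure {U : Type} [AddCommGroup U] [Module ℂ U] [FiniteDimensional ℂ U]
    (σ : Representation ℂ (SpecialLinearGroup (Fin 1 ⊕ Fin k) F) U) (hk : 2 ≤ k)
    (h : ∃ g, σ g ≠ 1) :
    ∃ μ, 1 ≤ μ ∧
      Module.finrank ℂ U + μ = Module.finrank ℂ (eigc σ 0) + μ * Fintype.card F ^ k := by
  obtain ⟨μ, hμ, hdim, -⟩ := structure_of_trans σ (k := k) (by omega) (trans_of_two_le hk)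
  exact ⟨μ, one_le_of_nontrivial σ (by omega) h μ hμ, hdim⟩

theorem pow_le_finrank_add_one {U : Type} [AddCommGroup U] [Module ℂ U] [FiniteDimensional ℂ U]
    (σ : Representation ℂ (SpecialLinearGroup (Fin 1 ⊕ Fin k) F) U) (hk : 2 ≤ k)
    (h : ∃ g, σ g ≠ 1) : Fintype.card F ^ k ≤ Module.finrank ℂ U + 1 := by
  obtain ⟨μ, hμ, hdim⟩ := exists_structure σ hk h
  obtain ⟨p, rfl⟩ : ∃ p, μ = p + 1 := ⟨μ - 1, by omega⟩
  have h1 : p ≤ p * Fintype.card F ^ k := Nat.le_mul_of_pos_right _ (pow_pos Fintype.card_pos _)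
  rw [add_mul, one_mul] at hdim
  omega

theorem pow_le_degree (hk : 2 ≤ k) (ht : ∀ x y, ∃ g, α g x = y) (hm : 2 ≤ m) :
    Fintype.card F ^ k ≤ m := by
  have h := pow_le_finrank_add_one (permZero α) hk (exists_permZero_ne_one ht hm)
  rwa [finrank_permZero α (by omega)] at h

theorem isIrreducible_permZero (hk : 2 ≤ k) (ht : ∀ x y, ∃ g, α g x = y) (hm : 2 ≤ m)
    (hlt : m + 1 < 2 * Fintype.card F ^ k) : (permZero α).IsIrreducible := by
  haveI : Nontrivial (sumZero α).toSubmodule :=
    Module.nontrivial_of_finrank_pos (R := ℂ) (by have := finrank_permZero α (by omega); omega)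
  refine isIrreducible_of_sections _ (Fintype.card F ^ k - 1) (fun v hv => eq_zero_of_fixed ht v hv)
    (fun U _ _ _ σ hσ => by have := pow_le_finrank_add_one σ hk hσ; omega) ?_
  have := finrank_permZero α (by omega)
  omega

theorem dvd_card_of_trans (hk : 2 ≤ k) (ht : ∀ x y, ∃ g, α g x = y) (hm : 2 ≤ m)
    (hlt : m + 1 < 2 * Fintype.card F ^ k) :
    m - 1 ∣ Nat.card (SpecialLinearGroup (Fin 1 ⊕ Fin k) F) := by
  haveI := isIrreducible_permZero hk ht hm hlt
  have h := CfsgLib.CharTheory.finrank_dvd_card (permZero α)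
  have := finrank_permZero α (by omega)
  rwa [show Module.finrank ℂ (sumZero α).toSubmodule = m - 1 by omega] at h

/-- In degree `q ^ k` the abelian subgroup is regular. -/
theorem qRow_free (hk : 2 ≤ k) (ht : ∀ x y, ∃ g, α g x = y) (hm : m = Fintype.card F ^ k) :
    (∀ x y, ∃ b, α (qRow b) x = y) ∧ ∀ x b, α (qRow b) x = x → b = 0 := by
  classical
  have hm2 : 2 ≤ m := by
    rw [hm]; exact le_trans Fintype.one_lt_card (Nat.le_self_pow (by omega) _)
  have htr : ∀ x y, ∃ b, α (qRow b) x = y := by
    intro x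
    obtain ⟨μ, hμ, hdim⟩ := exists_structure (permZero α) hk (exists_permZero_ne_one ht hm2)
    have hW := finrank_permZero α (by omega)
    have hd : Module.finrank ℂ (eigc (permZero α) 0) = 0 := by
      obtain ⟨p, rfl⟩ : ∃ p, μ = p + 1 := ⟨μ - 1, by omega⟩
      have h1 : p ≤ p * Fintype.card F ^ k :=
        Nat.le_mul_of_pos_right _ (pow_pos Fintype.card_pos _)
      rw [add_mul, one_mul] at hdim
      omega
    rw [Submodule.finrank_eq_zero] at hd
    let O : Finset (Fin m) := Finset.univ.image fun b : Fin k → F => α (qRow b) x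
    have hO : ∀ b y, α (qRow b) y ∈ O ↔ y ∈ O := by
      intro b y
      constructor
      · intro h
        obtain ⟨c, -, hc⟩ := Finset.mem_image.1 h
        refine Finset.mem_image.2 ⟨-b + c, Finset.mem_univ _, ?_⟩
        rw [qRow_add, map_mul, Equiv.Perm.mul_apply, hc, ← Equiv.Perm.mul_apply, ← map_mul,
          ← qRow_add, neg_add_cancel, qRow_zero, map_one, Equiv.Perm.one_apply]
      · intro h
        obtain ⟨c, -, rfl⟩ := Finset.mem_image.1 h
        exact Finset.mem_image.2 ⟨b + c, Finset.mem_univ _, by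
          rw [qRow_add, map_mul, Equiv.Perm.mul_apply]⟩
    let f : Fin m → ℂ := fun y => (m : ℂ) * (if y ∈ O then 1 else 0) - (O.card : ℂ)
    have hf : f ∈ (sumZero α).toSubmodule := by
      change ∑ y, f y = 0
      simp [f, Finset.sum_sub_distrib, mul_comm]
    have hfix : (⟨f, hf⟩ : (sumZero α).toSubmodule) ∈ eigc (permZero α) 0 := by
      intro b
      have hinv : (qRow b)⁻¹ = qRow (-b) := inv_eq_of_mul_eq_one_right (by
        rw [← qRow_add, add_neg_cancel, qRow_zero])
      rw [show PP (0 : Fin k → F) b = 1 by simp [PP], one_smul]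
      refine Subtype.ext (funext fun y => ?_)
      change f (α (qRow b)⁻¹ y) = f y
      simp only [f, hinv, hO]
    rw [hd, Submodule.mem_bot] at hfix
    have hx : x ∈ O := Finset.mem_image.2 ⟨0, Finset.mem_univ _, by
      rw [qRow_zero, map_one, Equiv.Perm.one_apply]⟩
    have h0 := congrFun (congrArg Subtype.val hfix) x
    change f x = 0 at h0
    simp only [f, hx, if_true, mul_one, sub_eq_zero, Nat.cast_inj] at h0
    have hO' : O = Finset.univ := Finset.eq_univ_of_card _ (by rw [Fintype.card_fin]; exact h0.symm)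
    intro y
    obtain ⟨b, -, hb⟩ := Finset.mem_image.1 (hO'.symm ▸ Finset.mem_univ y : y ∈ O)
    exact ⟨b, hb⟩
  refine ⟨htr, fun x b hb => ?_⟩
  have hbij : Function.Bijective fun c : Fin k → F => α (qRow c) x :=
    (Fintype.bijective_iff_surjective_and_card _).2 ⟨htr x, by simp [hm]⟩
  exact hbij.1 (by simp only [qRow_zero, map_one, Equiv.Perm.one_apply, hb])

/-- In degree `q ^ k` the transvections move every point. -/
theorem tv_free (hk : 2 ≤ k) (ht : ∀ x y, ∃ g, α g x = y) (hm : m = Fintype.card F ^ k)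
    (u φ : Fin 1 ⊕ Fin k → F) (h : φ ⬝ᵥ u = 0) (hu : u ≠ 0) (hφ : φ ≠ 0) (x : Fin m) :
    α (tv u φ h) x ≠ x := by
  intro hx
  obtain ⟨g, hg⟩ := exists_sl_mulVec (ι := Fin 1 ⊕ Fin k) (F := F) (by simp; omega)
    (c := e0) (c' := u) (by simp [e0]) hu
  obtain ⟨b, hb, he⟩ := tv_eq_conj u φ h hφ g 1 one_ne_zero (by rw [hg, one_smul])
  rw [he, map_mul, map_mul, Equiv.Perm.mul_apply, Equiv.Perm.mul_apply] at hx
  refine hb ((qRow_free hk ht hm).2 (α g⁻¹ x) b ?_)
  have h1 := congrArg (α g⁻¹) hx
  rwa [← Equiv.Perm.mul_apply, ← map_mul, inv_mul_cancel, map_one, Equiv.Perm.one_apply] at h1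

end CfsgLib.MinIndex
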