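import Cfsg.Agent.Lib.MinIndex.LinearExc

/-!
The minimal index of a proper subgroup of the projective special linear groups of dimension at
least three.
-/

set_option autoImplicit false
set_option linter.unusedSectionVars false
set_option linter.style.haveILetI false

namespace CfsgLib.MinIndex

open Matrix
open CfsgLib.InvCentralizers.LinearDegree (gs sub_one_mul_gs slReindex slReindex_surjective)
open scoped LinearAlgebra.Projectivization

variable {F : Type*} [Field F] [Fintype F]

theorem gs_eq_div (n : ℕ) :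
    gs (Fintype.card F) n = (Fintype.card F ^ n - 1) / (Fintype.card F - 1) := by
  have hq := Fintype.one_lt_card (α := F)
  rw [← sub_one_mul_gs (q := Fintype.card F) (by omega) n, Nat.add_sub_cancel,
    Nat.mul_div_cancel_left _ (by omega)]

/-- A proper subgroup of `SL` has index at least the number of lines. -/
theorem gs_le_index_sl [DecidableEq F] {k : ℕ} (hk : 2 ≤ k)
    (hexc : ¬ (k = 3 ∧ Fintype.card F = 2))
    (K : Subgroup (SpecialLinearGroup (Fin 1 ⊕ Fin k) F)) (hK : K ≠ ⊤) :
    gs (Fintype.card F) (k + 1) ≤ K.index := by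
  classical
  let X := SpecialLinearGroup (Fin 1 ⊕ Fin k) F ⧸ K
  let e : X ≃ Fin K.index := Finite.equivFinOfCardEq rfl
  let α : SpecialLinearGroup (Fin 1 ⊕ Fin k) F →* Equiv.Perm (Fin K.index) :=
    e.permCongrHom.toMonoidHom.comp (MulAction.toPermHom _ X)
  have h1 : K.index ≠ 1 := fun h => hK (Subgroup.index_eq_one.1 h)
  have h0 : K.index ≠ 0 := Subgroup.index_ne_zero_of_finite
  refine gs_le_degree (α := α) hk hexc (fun x y => ?_) (by omega)
  obtain ⟨g, hg⟩ := MulAction.exists_smul_eq (SpecialLinearGroup (Fin 1 ⊕ Fin k) F) (e.symm x) (e.symm y)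
  refine ⟨g, ?_⟩
  change e (g • e.symm x) = y
  rw [hg, Equiv.apply_symm_apply]

/-- A proper subgroup of `PSL` has index at least the number of lines. -/
theorem gs_le_index_psl {n : ℕ} (hn : 3 ≤ n) (hexc : ¬ (n = 4 ∧ Fintype.card F = 2))
    (H : Subgroup (ProjectiveSpecialLinearGroup (Fin n) F)) (hH : H ≠ ⊤) :
    gs (Fintype.card F) n ≤ H.index := by
  classical
  obtain ⟨k, rfl⟩ : ∃ k, n = k + 1 := ⟨n - 1, by omega⟩
  let e : Fin 1 ⊕ Fin k ≃ Fin (k + 1) := finSumFinEquiv.trans (finCongr (by omega))
  let f : SpecialLinearGroup (Fin 1 ⊕ Fin k) F →* ProjectiveSpecialLinearGroup (Fin (k + 1)) F :=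
    (QuotientGroup.mk' _).comp (slReindex e)
  have hf : Function.Surjective f :=
    (QuotientGroup.mk'_surjective _).comp (slReindex_surjective e)
  rw [← Subgroup.index_comap_of_surjective H hf]
  refine gs_le_index_sl (by omega) (fun h => hexc ⟨by omega, h.2⟩) _ fun h => hH ?_
  rw [eq_top_iff]
  intro y _
  obtain ⟨x, rfl⟩ := hf y
  exact Subgroup.mem_comap.1 (h ▸ Subgroup.mem_top x)

/-- The stabiliser of a point of the projective space. -/
theorem exists_index_psl {n : ℕ} (hn : 3 ≤ n) :
    ∃ H : Subgroup (ProjectiveSpecialLinearGroup (Fin n) F),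
      H.index = (Fintype.card F ^ n - 1) / (Fintype.card F - 1) := by
  haveI : Nontrivial (Fin n) := Fin.nontrivial_iff_two_le.2 (by omega)
  let p : ℙ F (Fin n → F) := Projectivization.mk F (Pi.single ⟨0, by omega⟩ 1)
    (Pi.single_ne_zero_iff.2 one_ne_zero)
  refine ⟨MulAction.stabilizer _ p, ?_⟩
  rw [MulAction.index_stabilizer_of_transitive, Projectivization.card'', Nat.card_fun, Nat.card_fin,
    Nat.card_eq_fintype_card]

end CfsgLib.MinIndex
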